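import Cfsg.Agent.Lib.Helper19.Rep78.Data

/-! Generated file: a 78-dimensional representation of `Fi22` over `ZMod 13`. -/

set_option autoImplicit false
set_option maxRecDepth 1000000

namespace Cfsg.Agent.Lib.Helper19.Rep78

open Cfsg.Agent.Lib.Helper19.MatC

theorem s0 : mt T0 * mt T0 = mt TI := mul_sound (by decide +kernel)

theorem s1 : mt T1 * mt T1 = mt TI := mul_sound (by decide +kernel)

theorem s2 : mt T2 * mt T2 = mt TI := mul_sound (by decide +kernel)

theorem s3 : mt T3 * mt T3 = mt TI := mul_sound (by decide +kernel)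

theorem s4 : mt T4 * mt T4 = mt TI := mul_sound (by decide +kernel)

theorem s5 : mt T5 * mt T5 = mt TI := mul_sound (by decide +kernel)

theorem s6 : mt T6 * mt T6 = mt TI := mul_sound (by decide +kernel)

theorem s7 : mt T7 * mt T7 = mt TI := mul_sound (by decide +kernel)

end Cfsg.Agent.Lib.Helper19.Rep78
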