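import Cfsg.Agent.Lib.Helper19.Rep78.Data

/-! Generated file: a 78-dimensional representation of `Fi22` over `ZMod 13`. -/

set_option autoImplicit false
set_option maxRecDepth 1000000

namespace Cfsg.Agent.Lib.Helper19.Rep78

open Cfsg.Agent.Lib.Helper19.MatC

theorem s8 : mt T8 * mt T8 = mt TI := mul_sound (by decide +kernel)

theorem p_0_1 : mt T0 * mt T1 = mt P_0_1 := mul_sound (by decide +kernel)

theorem q_0_1 : mt P_0_1 * mt P_0_1 = mt Q_0_1 := mul_sound (by decide +kernel)

theorem r_0_1 : mt Q_0_1 * mt P_0_1 = mt TI := mul_sound (by decide +kernel)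

theorem p_0_2 : mt T0 * mt T2 = mt P_0_2 := mul_sound (by decide +kernel)

theorem q_0_2 : mt P_0_2 * mt P_0_2 = mt TI := mul_sound (by decide +kernel)

theorem p_0_3 : mt T0 * mt T3 = mt P_0_3 := mul_sound (by decide +kernel)

theorem q_0_3 : mt P_0_3 * mt P_0_3 = mt TI := mul_sound (by decide +kernel)

end Cfsg.Agent.Lib.Helper19.Rep78
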