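import Cfsg.Agent.Lib.Helper19.Rep78.Data

/-! Generated file: a 78-dimensional representation of `Fi22` over `ZMod 13`. -/

set_option autoImplicit false
set_option maxRecDepth 1000000

namespace Cfsg.Agent.Lib.Helper19.Rep78

open Cfsg.Agent.Lib.Helper19.MatC

theorem p_5_8 : mt T5 * mt T8 = mt P_5_8 := mul_sound (by decide +kernel)

theorem q_5_8 : mt P_5_8 * mt P_5_8 = mt TI := mul_sound (by decide +kernel)

theorem p_6_7 : mt T6 * mt T7 = mt P_6_7 := mul_sound (by decide +kernel)

theorem q_6_7 : mt P_6_7 * mt P_6_7 = mt TI := mul_sound (by decide +kernel)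

theorem p_6_8 : mt T6 * mt T8 = mt P_6_8 := mul_sound (by decide +kernel)

theorem q_6_8 : mt P_6_8 * mt P_6_8 = mt TI := mul_sound (by decide +kernel)

theorem p_7_8 : mt T7 * mt T8 = mt P_7_8 := mul_sound (by decide +kernel)

theorem q_7_8 : mt P_7_8 * mt P_7_8 = mt Q_7_8 := mul_sound (by decide +kernel)

end Cfsg.Agent.Lib.Helper19.Rep78
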