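import Cfsg.Agent.Lib.Helper19.Rep78.Data

/-! Generated file: a 78-dimensional representation of `Fi22` over `ZMod 13`. -/

set_option autoImplicit false
set_option maxRecDepth 1000000

namespace Cfsg.Agent.Lib.Helper19.Rep78

open Cfsg.Agent.Lib.Helper19.MatC

theorem r_7_8 : mt Q_7_8 * mt P_7_8 = mt TI := mul_sound (by decide +kernel)

theorem w0_7 : mt T7 * mt T8 = mt W0_7 := mul_sound (by decide +kernel)

theorem w0_6 : mt T3 * mt W0_7 = mt W0_6 := mul_sound (by decide +kernel)

theorem w0_5 : mt T5 * mt W0_6 = mt W0_5 := mul_sound (by decide +kernel)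

theorem w0_4 : mt T4 * mt W0_5 = mt W0_4 := mul_sound (by decide +kernel)

theorem w0_3 : mt T3 * mt W0_4 = mt W0_3 := mul_sound (by decide +kernel)

theorem w0_2 : mt T1 * mt W0_3 = mt W0_2 := mul_sound (by decide +kernel)

theorem w0_1 : mt T2 * mt W0_2 = mt W0_1 := mul_sound (by decide +kernel)

end Cfsg.Agent.Lib.Helper19.Rep78
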