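import Cfsg.Agent.Lib.Helper19.Rep78.Data

/-! Generated file: a 78-dimensional representation of `Fi22` over `ZMod 13`. -/

set_option autoImplicit false
set_option maxRecDepth 1000000

namespace Cfsg.Agent.Lib.Helper19.Rep78

open Cfsg.Agent.Lib.Helper19.MatC

theorem w1_2 : mt T2 * mt W1_3 = mt W1_2 := mul_sound (by decide +kernel)

theorem w1_1 : mt T1 * mt W1_2 = mt W1_1 := mul_sound (by decide +kernel)

theorem w1_0 : mt T0 * mt W1_1 = mt W1_0 := mul_sound (by decide +kernel)

theorem w1_p2 : mt W1_0 * mt W1_0 = mt W1_p2 := mul_sound (by decide +kernel)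

theorem w1_p4 : mt W1_p2 * mt W1_p2 = mt W1_p4 := mul_sound (by decide +kernel)

theorem w1_p8 : mt W1_p4 * mt W1_p4 = mt W1_p8 := mul_sound (by decide +kernel)

theorem w1_pe : mt W1_p8 * mt W1_0 = mt TI := mul_sound (by decide +kernel)

theorem w2_5 : mt T6 * mt T7 = mt W2_5 := mul_sound (by decide +kernel)

end Cfsg.Agent.Lib.Helper19.Rep78
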