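import Cfsg.Agent.Lib.Helper19.Rep78.Data

/-! Generated file: a 78-dimensional representation of `Fi22` over `ZMod 13`. -/

set_option autoImplicit false
set_option maxRecDepth 1000000

namespace Cfsg.Agent.Lib.Helper19.Rep78

open Cfsg.Agent.Lib.Helper19.MatC

theorem w2_pe : mt W2_p8 * mt W2_0 = mt TI := mul_sound (by decide +kernel)

end Cfsg.Agent.Lib.Helper19.Rep78
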