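import Cfsg.Agent.Lib.Helper19.Rep78.Data

/-! Generated file: a 78-dimensional representation of `Fi22` over `ZMod 13`. -/

set_option autoImplicit false
set_option maxRecDepth 1000000

namespace Cfsg.Agent.Lib.Helper19.Rep78

open Cfsg.Agent.Lib.Helper19.MatC

theorem p_0_8 : mt T0 * mt T8 = mt P_0_8 := mul_sound (by decide +kernel)

theorem q_0_8 : mt P_0_8 * mt P_0_8 = mt TI := mul_sound (by decide +kernel)

theorem p_1_2 : mt T1 * mt T2 = mt P_1_2 := mul_sound (by decide +kernel)

theorem q_1_2 : mt P_1_2 * mt P_1_2 = mt Q_1_2 := mul_sound (by decide +kernel)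

theorem r_1_2 : mt Q_1_2 * mt P_1_2 = mt TI := mul_sound (by decide +kernel)

theorem p_1_3 : mt T1 * mt T3 = mt P_1_3 := mul_sound (by decide +kernel)

theorem q_1_3 : mt P_1_3 * mt P_1_3 = mt TI := mul_sound (by decide +kernel)

theorem p_1_4 : mt T1 * mt T4 = mt P_1_4 := mul_sound (by decide +kernel)

end Cfsg.Agent.Lib.Helper19.Rep78
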