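import Cfsg.Agent.Lib.Helper19.Rep78.Data

/-! Generated file: a 78-dimensional representation of `Fi22` over `ZMod 13`. -/

set_option autoImplicit false
set_option maxRecDepth 1000000

namespace Cfsg.Agent.Lib.Helper19.Rep78

open Cfsg.Agent.Lib.Helper19.MatC

theorem q_1_8 : mt P_1_8 * mt P_1_8 = mt TI := mul_sound (by decide +kernel)

theorem p_2_3 : mt T2 * mt T3 = mt P_2_3 := mul_sound (by decide +kernel)

theorem q_2_3 : mt P_2_3 * mt P_2_3 = mt Q_2_3 := mul_sound (by decide +kernel)

theorem r_2_3 : mt Q_2_3 * mt P_2_3 = mt TI := mul_sound (by decide +kernel)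

theorem p_2_4 : mt T2 * mt T4 = mt P_2_4 := mul_sound (by decide +kernel)

theorem q_2_4 : mt P_2_4 * mt P_2_4 = mt TI := mul_sound (by decide +kernel)

theorem p_2_5 : mt T2 * mt T5 = mt P_2_5 := mul_sound (by decide +kernel)

theorem q_2_5 : mt P_2_5 * mt P_2_5 = mt TI := mul_sound (by decide +kernel)

end Cfsg.Agent.Lib.Helper19.Rep78
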