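import Cfsg.Agent.Lib.Helper19.Rep78.Data

/-! Generated file: a 78-dimensional representation of `Fi22` over `ZMod 13`. -/

set_option autoImplicit false
set_option maxRecDepth 1000000

namespace Cfsg.Agent.Lib.Helper19.Rep78

open Cfsg.Agent.Lib.Helper19.MatC

theorem r_3_4 : mt Q_3_4 * mt P_3_4 = mt TI := mul_sound (by decide +kernel)

theorem p_3_5 : mt T3 * mt T5 = mt P_3_5 := mul_sound (by decide +kernel)

theorem q_3_5 : mt P_3_5 * mt P_3_5 = mt TI := mul_sound (by decide +kernel)

theorem p_3_6 : mt T3 * mt T6 = mt P_3_6 := mul_sound (by decide +kernel)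

theorem q_3_6 : mt P_3_6 * mt P_3_6 = mt TI := mul_sound (by decide +kernel)

theorem p_3_7 : mt T3 * mt T7 = mt P_3_7 := mul_sound (by decide +kernel)

theorem q_3_7 : mt P_3_7 * mt P_3_7 = mt Q_3_7 := mul_sound (by decide +kernel)

theorem r_3_7 : mt Q_3_7 * mt P_3_7 = mt TI := mul_sound (by decide +kernel)

end Cfsg.Agent.Lib.Helper19.Rep78
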