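import Cfsg.Agent.Lib.Helper19.PresFi22
import Cfsg.Agent.Lib.Helper19.Rep78.C0
import Cfsg.Agent.Lib.Helper19.Rep78.C1
import Cfsg.Agent.Lib.Helper19.Rep78.C2
import Cfsg.Agent.Lib.Helper19.Rep78.C3
import Cfsg.Agent.Lib.Helper19.Rep78.C4
import Cfsg.Agent.Lib.Helper19.Rep78.C5
import Cfsg.Agent.Lib.Helper19.Rep78.C6
import Cfsg.Agent.Lib.Helper19.Rep78.C7
import Cfsg.Agent.Lib.Helper19.Rep78.C8
import Cfsg.Agent.Lib.Helper19.Rep78.C9
import Cfsg.Agent.Lib.Helper19.Rep78.C10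
import Cfsg.Agent.Lib.Helper19.Rep78.C11
import Cfsg.Agent.Lib.Helper19.Rep78.C12
import Cfsg.Agent.Lib.Helper19.Rep78.C13
import Cfsg.Agent.Lib.Helper19.Rep78.C14
import Cfsg.Agent.Lib.Helper19.Rep78.C15

/-! Generated file: a 78-dimensional representation of `Fi22` over `ZMod 13`. -/

set_option autoImplicit false
set_option maxRecDepth 1000000

namespace Cfsg.Agent.Lib.Helper19.Rep78

open Cfsg.Agent.Lib.Helper19.MatC

open Cfsg.Spor Cfsg.Spor.Fi22
open Cfsg.Agent.Lib.Helper19.TCS (lift_rels cox_swap prod_rep)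

abbrev MM := Matrix (Fin 78) (Fin 78) (ZMod 13)

theorem one_I : mt TI = 1 := one_sound (by decide +kernel)

def tb : Gen → ℕ
  | .a => T0
  | .b => T1
  | .c => T2
  | .d => T3
  | .e => T4
  | .f => T5
  | .g => T6
  | .h => T7
  | .i => T8

def mg (x : Gen) : MM := mt (tb x)

theorem mg_sq : ∀ x, mg x * mg x = 1
  | .a => s0.trans one_I
  | .b => s1.trans one_I
  | .c => s2.trans one_I
  | .d => s3.trans one_I
  | .e => s4.trans one_I
  | .f => s5.trans one_I
  | .g => s6.trans one_I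
  | .h => s7.trans one_I
  | .i => s8.trans one_I

theorem pow2_of {X Y P : MM} (h1 : X * Y = P) (h2 : P * P = mt TI) : (X * Y) ^ 2 = 1 := by
  rw [h1, pow_two, h2, one_I]

theorem pow3_of {X Y P Q : MM} (h1 : X * Y = P) (h2 : P * P = Q) (h3 : Q * P = mt TI) :
    (X * Y) ^ 3 = 1 := by
  rw [h1, pow_succ, pow_two, h2, h3, one_I]

theorem pow10_of {W W2 W4 W8 : MM} (h2 : W * W = W2) (h4 : W2 * W2 = W4) (h8 : W4 * W4 = W8)
    (h : W8 * W2 = mt TI) : W ^ 10 = 1 := by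
  rw [← one_I, ← h, ← h8, ← h4, ← h2]
  simp only [pow_succ, pow_zero, one_mul, mul_assoc]

theorem pow9_of {W W2 W4 W8 : MM} (h2 : W * W = W2) (h4 : W2 * W2 = W4) (h8 : W4 * W4 = W8)
    (h : W8 * W = mt TI) : W ^ 9 = 1 := by
  rw [← one_I, ← h, ← h8, ← h4, ← h2]
  simp only [pow_succ, pow_zero, one_mul, mul_assoc]

noncomputable def u (x : Gen) : GL (Fin 78) (ZMod 13) := ⟨mg x, mg x, mg_sq x, mg_sq x⟩

theorem u_sq (x : Gen) : u x * u x = 1 := Units.ext (mg_sq x)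

theorem c_0_1 : (u .a * u .b) ^ 3 = 1 := Units.ext (pow3_of p_0_1 q_0_1 r_0_1)

theorem c_0_2 : (u .a * u .c) ^ 2 = 1 := Units.ext (pow2_of p_0_2 q_0_2)

theorem c_0_3 : (u .a * u .d) ^ 2 = 1 := Units.ext (pow2_of p_0_3 q_0_3)

theorem c_0_4 : (u .a * u .e) ^ 2 = 1 := Units.ext (pow2_of p_0_4 q_0_4)

theorem c_0_5 : (u .a * u .f) ^ 2 = 1 := Units.ext (pow2_of p_0_5 q_0_5)

theorem c_0_6 : (u .a * u .g) ^ 2 = 1 := Units.ext (pow2_of p_0_6 q_0_6)

theorem c_0_7 : (u .a * u .h) ^ 2 = 1 := Units.ext (pow2_of p_0_7 q_0_7)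

theorem c_0_8 : (u .a * u .i) ^ 2 = 1 := Units.ext (pow2_of p_0_8 q_0_8)

theorem c_1_2 : (u .b * u .c) ^ 3 = 1 := Units.ext (pow3_of p_1_2 q_1_2 r_1_2)

theorem c_1_3 : (u .b * u .d) ^ 2 = 1 := Units.ext (pow2_of p_1_3 q_1_3)

theorem c_1_4 : (u .b * u .e) ^ 2 = 1 := Units.ext (pow2_of p_1_4 q_1_4)

theorem c_1_5 : (u .b * u .f) ^ 2 = 1 := Units.ext (pow2_of p_1_5 q_1_5)

theorem c_1_6 : (u .b * u .g) ^ 2 = 1 := Units.ext (pow2_of p_1_6 q_1_6)

theorem c_1_7 : (u .b * u .h) ^ 2 = 1 := Units.ext (pow2_of p_1_7 q_1_7)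

theorem c_1_8 : (u .b * u .i) ^ 2 = 1 := Units.ext (pow2_of p_1_8 q_1_8)

theorem c_2_3 : (u .c * u .d) ^ 3 = 1 := Units.ext (pow3_of p_2_3 q_2_3 r_2_3)

theorem c_2_4 : (u .c * u .e) ^ 2 = 1 := Units.ext (pow2_of p_2_4 q_2_4)

theorem c_2_5 : (u .c * u .f) ^ 2 = 1 := Units.ext (pow2_of p_2_5 q_2_5)

theorem c_2_6 : (u .c * u .g) ^ 2 = 1 := Units.ext (pow2_of p_2_6 q_2_6)

theorem c_2_7 : (u .c * u .h) ^ 2 = 1 := Units.ext (pow2_of p_2_7 q_2_7)

theorem c_2_8 : (u .c * u .i) ^ 2 = 1 := Units.ext (pow2_of p_2_8 q_2_8)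

theorem c_3_4 : (u .d * u .e) ^ 3 = 1 := Units.ext (pow3_of p_3_4 q_3_4 r_3_4)

theorem c_3_5 : (u .d * u .f) ^ 2 = 1 := Units.ext (pow2_of p_3_5 q_3_5)

theorem c_3_6 : (u .d * u .g) ^ 2 = 1 := Units.ext (pow2_of p_3_6 q_3_6)

theorem c_3_7 : (u .d * u .h) ^ 3 = 1 := Units.ext (pow3_of p_3_7 q_3_7 r_3_7)

theorem c_3_8 : (u .d * u .i) ^ 2 = 1 := Units.ext (pow2_of p_3_8 q_3_8)

theorem c_4_5 : (u .e * u .f) ^ 3 = 1 := Units.ext (pow3_of p_4_5 q_4_5 r_4_5)

theorem c_4_6 : (u .e * u .g) ^ 2 = 1 := Units.ext (pow2_of p_4_6 q_4_6)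

theorem c_4_7 : (u .e * u .h) ^ 2 = 1 := Units.ext (pow2_of p_4_7 q_4_7)

theorem c_4_8 : (u .e * u .i) ^ 2 = 1 := Units.ext (pow2_of p_4_8 q_4_8)

theorem c_5_6 : (u .f * u .g) ^ 3 = 1 := Units.ext (pow3_of p_5_6 q_5_6 r_5_6)

theorem c_5_7 : (u .f * u .h) ^ 2 = 1 := Units.ext (pow2_of p_5_7 q_5_7)

theorem c_5_8 : (u .f * u .i) ^ 2 = 1 := Units.ext (pow2_of p_5_8 q_5_8)

theorem c_6_7 : (u .g * u .h) ^ 2 = 1 := Units.ext (pow2_of p_6_7 q_6_7)

theorem c_6_8 : (u .g * u .i) ^ 2 = 1 := Units.ext (pow2_of p_6_8 q_6_8)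

theorem c_7_8 : (u .h * u .i) ^ 3 = 1 := Units.ext (pow3_of p_7_8 q_7_8 r_7_8)

theorem label_symm (x y : Gen) : coxLabel edges x y = coxLabel edges y x := by
  cases x <;> cases y <;> rfl

theorem cox_all_of {K : Type*} [Group K] (v : Gen → K) (hsq : ∀ x, v x * v x = 1)
    (hp : ∀ x y, PresFi22.num x < PresFi22.num y → (v x * v y) ^ coxLabel edges x y = 1) :
    ∀ x y, (v x * v y) ^ coxLabel edges x y = 1 := by
  intro x y
  rcases Nat.lt_trichotomy (PresFi22.num x) (PresFi22.num y) with h | h | h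
  · exact hp x y h
  · have e : x = y := by rw [← PresFi22.gen_num x, ← PresFi22.gen_num y, h]
    subst e
    rw [hsq, one_pow]
  · rw [label_symm]
    exact cox_swap (hsq y) (hsq x) (hp y x h)

theorem chain9 {M : Type*} [Monoid M] {x1 x2 x3 x4 x5 x6 x7 x8 x9 y1 y2 y3 y4 y5 y6 y7 y8 : M}
    (h8 : x8 * x9 = y8) (h7 : x7 * y8 = y7) (h6 : x6 * y7 = y6) (h5 : x5 * y6 = y5)
    (h4 : x4 * y5 = y4) (h3 : x3 * y4 = y3) (h2 : x2 * y3 = y2) (h1 : x1 * y2 = y1) :
    [x1, x2, x3, x4, x5, x6, x7, x8, x9].prod = y1 := by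
  simp only [List.prod_cons, List.prod_nil, mul_one]
  rw [h8, h7, h6, h5, h4, h3, h2, h1]

theorem chain7 {M : Type*} [Monoid M] {x1 x2 x3 x4 x5 x6 x7 y1 y2 y3 y4 y5 y6 : M}
    (h6 : x6 * x7 = y6) (h5 : x5 * y6 = y5)
    (h4 : x4 * y5 = y4) (h3 : x3 * y4 = y3) (h2 : x2 * y3 = y2) (h1 : x1 * y2 = y1) :
    [x1, x2, x3, x4, x5, x6, x7].prod = y1 := by
  simp only [List.prod_cons, List.prod_nil, mul_one]
  rw [h6, h5, h4, h3, h2, h1]

theorem cox_lt : ∀ x y : Gen, PresFi22.num x < PresFi22.num y → (u x * u y) ^ coxLabel edges x y = 1 := by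
  intro x y h
  cases x <;> cases y
  · exact absurd h (by decide)
  · rw [show coxLabel edges Gen.a Gen.b = 3 from rfl]; exact c_0_1
  · rw [show coxLabel edges Gen.a Gen.c = 2 from rfl]; exact c_0_2
  · rw [show coxLabel edges Gen.a Gen.d = 2 from rfl]; exact c_0_3
  · rw [show coxLabel edges Gen.a Gen.e = 2 from rfl]; exact c_0_4
  · rw [show coxLabel edges Gen.a Gen.f = 2 from rfl]; exact c_0_5
  · rw [show coxLabel edges Gen.a Gen.g = 2 from rfl]; exact c_0_6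
  · rw [show coxLabel edges Gen.a Gen.h = 2 from rfl]; exact c_0_7
  · rw [show coxLabel edges Gen.a Gen.i = 2 from rfl]; exact c_0_8
  · exact absurd h (by decide)
  · exact absurd h (by decide)
  · rw [show coxLabel edges Gen.b Gen.c = 3 from rfl]; exact c_1_2
  · rw [show coxLabel edges Gen.b Gen.d = 2 from rfl]; exact c_1_3
  · rw [show coxLabel edges Gen.b Gen.e = 2 from rfl]; exact c_1_4
  · rw [show coxLabel edges Gen.b Gen.f = 2 from rfl]; exact c_1_5
  · rw [show coxLabel edges Gen.b Gen.g = 2 from rfl]; exact c_1_6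
  · rw [show coxLabel edges Gen.b Gen.h = 2 from rfl]; exact c_1_7
  · rw [show coxLabel edges Gen.b Gen.i = 2 from rfl]; exact c_1_8
  · exact absurd h (by decide)
  · exact absurd h (by decide)
  · exact absurd h (by decide)
  · rw [show coxLabel edges Gen.c Gen.d = 3 from rfl]; exact c_2_3
  · rw [show coxLabel edges Gen.c Gen.e = 2 from rfl]; exact c_2_4
  · rw [show coxLabel edges Gen.c Gen.f = 2 from rfl]; exact c_2_5
  · rw [show coxLabel edges Gen.c Gen.g = 2 from rfl]; exact c_2_6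
  · rw [show coxLabel edges Gen.c Gen.h = 2 from rfl]; exact c_2_7
  · rw [show coxLabel edges Gen.c Gen.i = 2 from rfl]; exact c_2_8
  · exact absurd h (by decide)
  · exact absurd h (by decide)
  · exact absurd h (by decide)
  · exact absurd h (by decide)
  · rw [show coxLabel edges Gen.d Gen.e = 3 from rfl]; exact c_3_4
  · rw [show coxLabel edges Gen.d Gen.f = 2 from rfl]; exact c_3_5
  · rw [show coxLabel edges Gen.d Gen.g = 2 from rfl]; exact c_3_6
  · rw [show coxLabel edges Gen.d Gen.h = 3 from rfl]; exact c_3_7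
  · rw [show coxLabel edges Gen.d Gen.i = 2 from rfl]; exact c_3_8
  · exact absurd h (by decide)
  · exact absurd h (by decide)
  · exact absurd h (by decide)
  · exact absurd h (by decide)
  · exact absurd h (by decide)
  · rw [show coxLabel edges Gen.e Gen.f = 3 from rfl]; exact c_4_5
  · rw [show coxLabel edges Gen.e Gen.g = 2 from rfl]; exact c_4_6
  · rw [show coxLabel edges Gen.e Gen.h = 2 from rfl]; exact c_4_7
  · rw [show coxLabel edges Gen.e Gen.i = 2 from rfl]; exact c_4_8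
  · exact absurd h (by decide)
  · exact absurd h (by decide)
  · exact absurd h (by decide)
  · exact absurd h (by decide)
  · exact absurd h (by decide)
  · exact absurd h (by decide)
  · rw [show coxLabel edges Gen.f Gen.g = 3 from rfl]; exact c_5_6
  · rw [show coxLabel edges Gen.f Gen.h = 2 from rfl]; exact c_5_7
  · rw [show coxLabel edges Gen.f Gen.i = 2 from rfl]; exact c_5_8
  · exact absurd h (by decide)
  · exact absurd h (by decide)
  · exact absurd h (by decide)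
  · exact absurd h (by decide)
  · exact absurd h (by decide)
  · exact absurd h (by decide)
  · exact absurd h (by decide)
  · rw [show coxLabel edges Gen.g Gen.h = 2 from rfl]; exact c_6_7
  · rw [show coxLabel edges Gen.g Gen.i = 2 from rfl]; exact c_6_8
  · exact absurd h (by decide)
  · exact absurd h (by decide)
  · exact absurd h (by decide)
  · exact absurd h (by decide)
  · exact absurd h (by decide)
  · exact absurd h (by decide)
  · exact absurd h (by decide)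
  · exact absurd h (by decide)
  · rw [show coxLabel edges Gen.h Gen.i = 3 from rfl]; exact c_7_8
  · exact absurd h (by decide)
  · exact absurd h (by decide)
  · exact absurd h (by decide)
  · exact absurd h (by decide)
  · exact absurd h (by decide)
  · exact absurd h (by decide)
  · exact absurd h (by decide)
  · exact absurd h (by decide)
  · exact absurd h (by decide)

theorem cox_all : ∀ x y : Gen, (u x * u y) ^ coxLabel edges x y = 1 := cox_all_of u u_sq cox_lt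

theorem val_prod (l : List Gen) : ((l.map u).prod : GL (Fin 78) (ZMod 13)).val = (l.map mg).prod := by
  induction l with
  | nil => rfl
  | cons x l ih =>
    rw [List.map_cons, List.prod_cons, Units.val_mul, ih]
    rfl

theorem wmap0 : List.map mg [.d, .c, .b, .d, .e, .f, .d, .h, .i] = [mt T3, mt T2, mt T1, mt T3, mt T4, mt T5, mt T3, mt T7, mt T8] := rfl

theorem wch0 : [mt T3, mt T2, mt T1, mt T3, mt T4, mt T5, mt T3, mt T7, mt T8].prod = mt W0_0 :=
  chain9 (M := MM) (x1 := mt T3) (x2 := mt T2) (x3 := mt T1) (x4 := mt T3) (x5 := mt T4) (x6 := mt T5) (x7 := mt T3) (x8 := mt T7) (x9 := mt T8)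
    (y1 := mt W0_0) (y2 := mt W0_1) (y3 := mt W0_2) (y4 := mt W0_3) (y5 := mt W0_4) (y6 := mt W0_5) (y7 := mt W0_6) (y8 := mt W0_7)
    w0_7 w0_6 w0_5 w0_4 w0_3 w0_2 w0_1 w0_0

theorem word0 : (([.d, .c, .b, .d, .e, .f, .d, .h, .i] : List Gen).map mg).prod = mt W0_0 :=
  (congrArg List.prod wmap0).trans wch0

theorem rel0 : (PresFi22.xg0.map u).prod = 1 := by
  apply Units.ext
  rw [val_prod, PresFi22.xg0, prod_rep, word0]
  exact pow10_of w0_p2 w0_p4 w0_p8 w0_pe

theorem wmap1 : List.map mg [.a, .b, .c, .d, .e, .f, .h] = [mt T0, mt T1, mt T2, mt T3, mt T4, mt T5, mt T7] := rfl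

theorem wch1 : [mt T0, mt T1, mt T2, mt T3, mt T4, mt T5, mt T7].prod = mt W1_0 :=
  chain7 (M := MM) (x1 := mt T0) (x2 := mt T1) (x3 := mt T2) (x4 := mt T3) (x5 := mt T4) (x6 := mt T5) (x7 := mt T7)
    (y1 := mt W1_0) (y2 := mt W1_1) (y3 := mt W1_2) (y4 := mt W1_3) (y5 := mt W1_4) (y6 := mt W1_5)
    w1_5 w1_4 w1_3 w1_2 w1_1 w1_0

theorem word1 : (([.a, .b, .c, .d, .e, .f, .h] : List Gen).map mg).prod = mt W1_0 :=
  (congrArg List.prod wmap1).trans wch1

theorem rel1 : (PresFi22.xg1.map u).prod = 1 := by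
  apply Units.ext
  rw [val_prod, PresFi22.xg1, prod_rep, word1]
  exact pow9_of w1_p2 w1_p4 w1_p8 w1_pe

theorem wmap2 : List.map mg [.b, .c, .d, .e, .f, .g, .h] = [mt T1, mt T2, mt T3, mt T4, mt T5, mt T6, mt T7] := rfl

theorem wch2 : [mt T1, mt T2, mt T3, mt T4, mt T5, mt T6, mt T7].prod = mt W2_0 :=
  chain7 (M := MM) (x1 := mt T1) (x2 := mt T2) (x3 := mt T3) (x4 := mt T4) (x5 := mt T5) (x6 := mt T6) (x7 := mt T7)
    (y1 := mt W2_0) (y2 := mt W2_1) (y3 := mt W2_2) (y4 := mt W2_3) (y5 := mt W2_4) (y6 := mt W2_5)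
    w2_5 w2_4 w2_3 w2_2 w2_1 w2_0

theorem word2 : (([.b, .c, .d, .e, .f, .g, .h] : List Gen).map mg).prod = mt W2_0 :=
  (congrArg List.prod wmap2).trans wch2

theorem rel2 : (PresFi22.xg2.map u).prod = 1 := by
  apply Units.ext
  rw [val_prod, PresFi22.xg2, prod_rep, word2]
  exact pow9_of w2_p2 w2_p4 w2_p8 w2_pe

noncomputable def f : Cfsg.Spor.Fi22 →* GL (Fin 78) (ZMod 13) :=
  PresentedGroup.toGroup (f := u)
    (lift_rels edges extra u cox_all (PresFi22.lift_extra u u_sq rel0 rel1 rel2))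

theorem f_of (x : Gen) : f (PresentedGroup.of x) = u x := PresentedGroup.toGroup.of _

theorem ent_a : ent 78 T0 2 0 = 12 := by decide +kernel

theorem u_ne : u .a ≠ 1 := by
  intro h
  have h2 : mg .a = 1 := congrArg Units.val h
  have h3 := congrFun (congrFun h2 ⟨2, by decide⟩) ⟨0, by decide⟩
  have h4 : ((ent 78 T0 2 0 : ℕ) : ZMod 13) = 0 := by
    rw [Matrix.one_apply_ne (by decide)] at h3
    exact h3
  rw [ent_a] at h4
  exact absurd h4 (by decide)

end Cfsg.Agent.Lib.Helper19.Rep78
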